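import Cfsg.Agent.H672.Four.InterfaceB
import Cfsg.Agent.H670.Palfy.Base
import Cfsg.Agent.H565.CopSylow
import Cfsg.Agent.Schreier.Tools

/-!
# S4773-I: modules of order `2 ^ 6` in which each nonzero vector is fixed by exactly one Sylow subgroup (helper187)
-/

set_option autoImplicit false

namespace Cfsg.Agent.H187.TwoSix

open Cfsg.Agent.H670.Palfy Cfsg.Agent.H672.Four Subgroup

universe u v

/-! ### Orbits of a subgroup normalised by a Sylow subgroup -/

section

variable {H : Type u} [Group H] [Finite H]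

/-- The number of conjugates of a Sylow subgroup `T` under a subgroup normalised by `T`. -/
theorem relIndex_modEq_one {t : ℕ} [ht : Fact t.Prime] (T : Sylow t H) (Y : Subgroup H)
    (hY : (T : Subgroup H) ≤ normalizer (Y : Set H)) :
    (normalizer ((T : Subgroup H) : Set H)).relIndex Y ≡ 1 [MOD t] := by
  classical
  have h1 : (normalizer ((T : Subgroup H) : Set H)).relIndex Y = (MulAction.orbit Y T).ncard := by
    rw [← MulAction.index_stabilizer]
    have e : MulAction.stabilizer Y T = (normalizer ((T : Subgroup H) : Set H)).subgroupOf Y := by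
      ext y
      rw [MulAction.mem_stabilizer_iff, mem_subgroupOf]
      exact Sylow.smul_eq_iff_mem_normalizer
    rw [e]
    rfl
  let O : SubMulAction (T : Subgroup H) (Sylow t H) :=
    { carrier := MulAction.orbit Y T
      smul_mem' := by
        rintro s _ ⟨y, rfl⟩
        have hs : (s : H) • T = T := Sylow.smul_eq_iff_mem_normalizer.2 (le_normalizer s.2)
        have hy : (s : H) * y * (s : H)⁻¹ ∈ Y := (mem_normalizer_iff.1 (hY s.2) y).1 y.2
        refine ⟨⟨(s : H) * y * (s : H)⁻¹, hy⟩, ?_⟩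
        change ((s : H) * y * (s : H)⁻¹) • T = (s : H) • (y : H) • T
        calc ((s : H) * y * (s : H)⁻¹) • T = ((s : H) * y * (s : H)⁻¹) • ((s : H) • T) := congrArg _ hs.symm
          _ = (s : H) • (y : H) • T := by rw [← mul_smul, ← mul_smul, inv_mul_cancel_right] }
  have h2 := T.isPGroup'.card_modEq_card_fixedPoints O
  have h3 : Nat.card O = (MulAction.orbit Y T).ncard := rfl
  have hT : T ∈ MulAction.orbit Y T := MulAction.mem_orbit_self T
  have h4 : MulAction.fixedPoints (T : Subgroup H) O = {⟨T, hT⟩} := by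
    ext Q
    rw [Set.mem_singleton_iff, MulAction.mem_fixedPoints]
    constructor
    · intro h
      have h5 : (Q : Sylow t H) ∈ MulAction.fixedPoints (T : Subgroup H) (Sylow t H) := fun s =>
        congrArg Subtype.val (h s)
      rw [T.isPGroup'.sylow_mem_fixedPoints_iff] at h5
      have h6 : (T : Subgroup H) = ((Q : Sylow t H) : Subgroup H) := by
        refine Subgroup.eq_of_le_of_card_ge h5 (le_of_eq ?_)
        rw [Sylow.card_eq_multiplicity, Sylow.card_eq_multiplicity]
      exact Subtype.ext (Sylow.ext h6.symm)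
    · rintro rfl s
      exact Subtype.ext (Sylow.smul_eq_iff_mem_normalizer.2 (le_normalizer s.2))
  rw [h4, h3, ← h1] at h2
  rwa [Nat.card_eq_fintype_card, Fintype.card_unique] at h2

omit [Finite H] in
theorem card_inf_mul (N X : Subgroup H) : Nat.card ↥(N ⊓ X) * N.relIndex X = Nat.card X := by
  rw [← relIndex_bot_left, ← relIndex_bot_left X, ← inf_relIndex_right N X]
  exact relIndex_mul_relIndex _ _ _ bot_le inf_le_right

theorem relIndex_dvd_index (N X : Subgroup H) [X.Normal] : N.relIndex X ∣ N.index := by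
  have h1 : N.relIndex (N ⊔ X) ∣ N.index := ⟨_, (relIndex_mul_index le_sup_left).symm⟩
  have h2 : X.relIndex (N ⊔ X) = X.relIndex N := relIndex_sup_right N X
  have h3 := card_inf_mul X (N ⊔ X)
  have h4 := card_inf_mul N (N ⊔ X)
  have h5 := card_inf_mul X N
  have h6 := card_inf_mul N X
  rw [inf_eq_left.2 (le_sup_right : X ≤ N ⊔ X), h2] at h3
  rw [inf_eq_left.2 (le_sup_left : N ≤ N ⊔ X)] at h4
  rw [inf_comm] at h5
  have h7 : N.relIndex (N ⊔ X) = N.relIndex X := by
    have hpos : 0 < Nat.card ↥(N ⊓ X) * X.relIndex N := by rw [h5]; exact Nat.card_pos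
    apply Nat.eq_of_mul_eq_mul_left hpos
    rw [h5, h4, ← h3, ← h6, ← h5]
    ring
  rwa [h7] at h1

/-- A normal subgroup of order prime to `t`: normalising and centralising a Sylow `t`-subgroup. -/
theorem cent_of_norm {t : ℕ} [ht : Fact t.Prime] (T : Sylow t H) (X : Subgroup H) [hX : X.Normal]
    (hn : ¬ t ∣ Nat.card X) {x : H} (hx : x ∈ X) (hx' : x ∈ normalizer ((T : Subgroup H) : Set H)) :
    x ∈ centralizer ((T : Subgroup H) : Set H) := by
  rw [mem_centralizer_iff]
  intro s hs
  have h1 : x * s * x⁻¹ * s⁻¹ ∈ (T : Subgroup H) :=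
    mul_mem ((mem_normalizer_iff.1 hx' s).1 hs) (inv_mem hs)
  have h2 : x * s * x⁻¹ * s⁻¹ ∈ X := by
    have h3 : x * s * x⁻¹ * s⁻¹ = x * (s * x⁻¹ * s⁻¹) := by group
    rw [h3]
    exact mul_mem hx (hX.conj_mem _ (inv_mem hx) s)
  have h3 : (T : Subgroup H) ⊓ X = ⊥ := by
    apply Disjoint.eq_bot
    apply Subgroup.disjoint_of_coprime_natCard
    obtain ⟨n, hn'⟩ := T.isPGroup'.exists_card_eq
    rw [hn']
    exact Nat.Coprime.pow_left _ ((Nat.Prime.coprime_iff_not_dvd ht.out).2 hn)
  have h4 : x * s * x⁻¹ * s⁻¹ ∈ (T : Subgroup H) ⊓ X := ⟨h1, h2⟩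
  rw [h3, mem_bot, mul_inv_eq_one, mul_inv_eq_iff_eq_mul] at h4
  exact h4.symm

/-- Let `X` be a normal subgroup of order prime to `t`, and `T` a Sylow `t`-subgroup. If `7` divides `|X : N_X(T)|`
exactly once then `7 ≡ 1 mod t`. -/
theorem seven {t : ℕ} [ht : Fact t.Prime] (T : Sylow t H) (X : Subgroup H) [hX : X.Normal]
    (hn : ¬ t ∣ Nat.card X)
    (h7 : ((normalizer ((T : Subgroup H) : Set H)).relIndex X).factorization 7 = 1) : 7 ≡ 1 [MOD t] := by
  have h7p : Fact (Nat.Prime 7) := ⟨by norm_num⟩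
  have hAK : (T : Subgroup H) ≤ normalizer (X : Set H) := by
    rw [normalizer_eq_top (H := X)]
    exact le_top
  have hcop : (Nat.card (T : Subgroup H)).Coprime (Nat.card X) := by
    obtain ⟨n, hn'⟩ := T.isPGroup'.exists_card_eq
    rw [hn']
    exact Nat.Coprime.pow_left _ ((Nat.Prime.coprime_iff_not_dvd ht.out).2 hn)
  have hsol : Group.IsSolvable (T : Subgroup H) := by
    have := T.isPGroup'.isNilpotent
    infer_instance
  have hbot : (T : Subgroup H) ≤ normalizer ((⊥ : Subgroup H) : Set H) := by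
    rw [normalizer_eq_top (H := (⊥ : Subgroup H))]
    exact le_top
  obtain ⟨P, -, hP⟩ := Cfsg.Agent.S0025.result (T : Subgroup H) X hAK hcop (Or.inl hsol) 7 ⊥ bot_le
    (IsPGroup.of_bot) hbot
  have h1 := Cfsg.Agent.H565.CopSylow.card_sylow_inf_centralizer (T : Subgroup H) X hAK hcop (Or.inl hsol) 7 P hP
  set U : Subgroup H := (P : Subgroup X).map X.subtype with hU
  have hUX : U ≤ X := map_subtype_le _
  have hcU : Nat.card U = 7 ^ (Nat.card X).factorization 7 := by
    rw [hU, Nat.card_congr ((P : Subgroup X).equivMapOfInjective X.subtype X.subtype_injective).toEquiv.symm]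
    exact P.card_eq_multiplicity
  have heq : ∀ Y : Subgroup H, Y ≤ X →
      normalizer ((T : Subgroup H) : Set H) ⊓ Y = Y ⊓ centralizer ((T : Subgroup H) : Set H) := by
    intro Y hY
    apply le_antisymm
    · intro x hx
      exact ⟨hx.2, cent_of_norm T X hn (hY hx.2) hx.1⟩
    · intro x hx
      refine ⟨?_, hx.1⟩
      exact centralizer_le_normalizer _ hx.2
  have h2 := card_inf_mul (normalizer ((T : Subgroup H) : Set H)) X
  have h3 := card_inf_mul (normalizer ((T : Subgroup H) : Set H)) U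
  rw [heq X le_rfl] at h2
  rw [heq U hUX, h1, hcU] at h3
  have h4 : (Nat.card X).factorization 7 =
      (Nat.card ↥(X ⊓ centralizer ((T : Subgroup H) : Set H))).factorization 7 + 1 := by
    rw [← h2, Nat.factorization_mul Nat.card_pos.ne' (by
      intro h0
      rw [h0] at h7
      simp at h7), Finsupp.add_apply, h7]
  rw [h4, pow_succ] at h3
  have h5 : (normalizer ((T : Subgroup H) : Set H)).relIndex U = 7 :=
    Nat.eq_of_mul_eq_mul_left (pow_pos (by norm_num) _) h3
  have h6 := relIndex_modEq_one T U hP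
  rwa [h5] at h6

end

/-! ### The parameters -/

section

variable {H : Type u} {V : Type v} [Group H] [Finite H] [AddCommGroup V] [Finite V] [DistribMulAction H V]

theorem params (hf : Faith H V) (hV : Nat.card V = 2 ^ 6) {t : ℕ} [ht : Fact t.Prime] (ht2 : t ≠ 2)
    (htH : t ∣ Nat.card H) (h : UF t H (⊥ : AddSubgroup V)) (T : Sylow t H) :
    (t = 31 ∧ Nat.card (Sylow t H) = 63 ∧ Nat.card (fixed V (T : Subgroup H)) = 2) ∨
      (t = 5 ∧ Nat.card (Sylow t H) = 21 ∧ Nat.card (fixed V (T : Subgroup H)) = 4) := by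
  have hQ : ¬ Triv V (T : Subgroup H) := by
    intro h1
    apply T.ne_bot_of_dvd_card htH
    rw [Subgroup.eq_bot_iff_forall]
    intro x hx
    exact hf x (h1 x hx)
  have h1 := h.card_ne_one hQ
  obtain ⟨m, hm0, hm, hc, he⟩ := h.params Nat.prime_two hV (by norm_num) T h1
  have hmod : Nat.card (Sylow t H) ≡ 1 [MOD t] := card_sylow_modEq_one t H
  have hodd : ∀ k : ℕ, t ∣ 2 ^ k * 31 → t = 31 := by
    intro k hk
    rcases (Nat.Prime.dvd_mul ht.out).1 hk with h | h
    · exact absurd ((Nat.prime_dvd_prime_iff_eq ht.out Nat.prime_two).1 (ht.out.dvd_of_dvd_pow h)) ht2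
    · exact (Nat.prime_dvd_prime_iff_eq ht.out (by norm_num)).1 h
  have hodd5 : ∀ k : ℕ, t ∣ 2 ^ k * 5 → t = 5 := by
    intro k hk
    rcases (Nat.Prime.dvd_mul ht.out).1 hk with h | h
    · exact absurd ((Nat.prime_dvd_prime_iff_eq ht.out Nat.prime_two).1 (ht.out.dvd_of_dvd_pow h)) ht2
    · exact (Nat.prime_dvd_prime_iff_eq ht.out (by norm_num)).1 h
  rw [hc]
  interval_cases m
  · have hn : Nat.card (Sylow t H) = 63 := by omega
    rw [hn] at hmod ⊢
    have h2 : t ∣ 63 - 1 := (Nat.modEq_iff_dvd' (by norm_num)).1 hmod.symm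
    left
    exact ⟨hodd 1 (by norm_num at h2 ⊢; exact h2), rfl, rfl⟩
  · have hn : Nat.card (Sylow t H) = 21 := by omega
    rw [hn] at hmod ⊢
    have h2 : t ∣ 21 - 1 := (Nat.modEq_iff_dvd' (by norm_num)).1 hmod.symm
    right
    exact ⟨hodd5 2 (by norm_num at h2 ⊢; exact h2), rfl, rfl⟩
  · have hn : Nat.card (Sylow t H) = 9 := by omega
    rw [hn] at hmod
    have h2 : t ∣ 9 - 1 := (Nat.modEq_iff_dvd' (by norm_num)).1 hmod.symm
    have h3 : t ∣ 2 ^ 3 := by norm_num at h2 ⊢; exact h2
    exact absurd ((Nat.prime_dvd_prime_iff_eq ht.out Nat.prime_two).1 (ht.out.dvd_of_dvd_pow h3)) ht2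
  · exfalso
    omega
  · exfalso
    omega

omit [Finite H] [Finite V] in
/-- A subgroup normalising `T` acts on the vectors fixed by `T`. -/
theorem smul_fixed {t : ℕ} {T : Sylow t H} {x : H} (hx : x ∈ normalizer ((T : Subgroup H) : Set H)) {v : V}
    (hv : v ∈ fixed V (T : Subgroup H)) : x • v ∈ fixed V (T : Subgroup H) := by
  intro s hs
  have h1 : x⁻¹ * s * x ∈ (T : Subgroup H) := (mem_normalizer_iff''.1 hx s).1 hs
  have h2 := hv _ h1
  rw [mul_smul, mul_smul, inv_smul_eq_iff] at h2
  exact h2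

/-- A group normalising all Sylow subgroups, with few fixed vectors, is solvable. -/
theorem solvable_of_norm (hf : Faith H V) {t : ℕ}
    (h : UF t H (⊥ : AddSubgroup V)) (X : Subgroup H)
    (hX : ∀ T : Sylow t H, X ≤ normalizer ((T : Subgroup H) : Set H))
    (hc : ∀ T : Sylow t H, Nat.card (fixed V (T : Subgroup H)) ≤ 4) : Group.IsSolvable X := by
  classical
  -- the action on the fixed vectors
  let act : ∀ T : Sylow t H, MulAction X (fixed V (T : Subgroup H)) := fun T =>
    { smul := fun x v => ⟨(x : H) • (v : V), smul_fixed (hX T x.2) v.2⟩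
      one_smul := fun v => Subtype.ext (one_smul H (v : V))
      mul_smul := fun x y v => Subtype.ext (mul_smul (x : H) (y : H) (v : V)) }
  let f : ∀ T : Sylow t H, X →* Equiv.Perm (fixed V (T : Subgroup H)) := fun T =>
    letI := act T
    MulAction.toPermHom X _
  have hfT : ∀ (T : Sylow t H) (x : X) (v : fixed V (T : Subgroup H)), ((f T x v : fixed V (T : Subgroup H)) : V) =
    (x : H) • (v : V) := fun _ _ _ => rfl
  have hsol : ∀ T : Sylow t H, ∃ n, derivedSeries (Equiv.Perm (fixed V (T : Subgroup H))) n = ⊥ := fun T =>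
    (Schreier.Tools.isSolvable_perm_of_card_le_four _ (hc T)).solvable
  choose n hn using hsol
  have : Fintype (Sylow t H) := Fintype.ofFinite _
  refine ⟨⟨∑ T, n T, ?_⟩⟩
  rw [Subgroup.eq_bot_iff_forall]
  intro x hx
  apply Subtype.ext
  apply hf
  intro v
  by_cases hv : v = 0
  · rw [hv, smul_zero]
  obtain ⟨T, hT, -⟩ := h v hv
  have h1 : x ∈ derivedSeries X (n T) :=
    derivedSeries_antitone X (Finset.single_le_sum (f := n) (fun _ _ => Nat.zero_le _) (Finset.mem_univ T)) hx
  have h2 : f T x ∈ derivedSeries (Equiv.Perm (fixed V (T : Subgroup H))) (n T) :=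
    map_derivedSeries_le_derivedSeries (f T) (n T) (mem_map_of_mem _ h1)
  rw [hn T, mem_bot] at h2
  have h3 := hfT T x ⟨v, hT⟩
  rw [h2] at h3
  exact h3.symm

end

theorem fac7 (a : ℕ) (ha : a ≠ 0) (h : ¬ 7 ∣ a) : (a * 7).factorization 7 = 1 := by
  rw [Nat.factorization_mul ha (by norm_num), Finsupp.add_apply, Nat.factorization_eq_zero_of_not_dvd h,
    Nat.Prime.factorization_self (by norm_num)]

theorem num63 (m : ℕ) (h : m ∣ 63) (h1 : m ≡ 1 [MOD 31]) (h3 : ¬ m = 1) : m = 9 * 7 := by
  have key : ∀ m ∈ Nat.divisors 63, m % 31 = 1 % 31 → ¬ m = 1 → m = 9 * 7 := by decide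
  exact key m (Nat.mem_divisors.2 ⟨h, by norm_num⟩) h1 h3

theorem num21 (m : ℕ) (h : m ∣ 21) (h1 : m ≡ 1 [MOD 5]) (h3 : ¬ m = 1) : m = 3 * 7 := by
  have key : ∀ m ∈ Nat.divisors 21, m % 5 = 1 % 5 → ¬ m = 1 → m = 3 * 7 := by decide
  exact key m (Nat.mem_divisors.2 ⟨h, by norm_num⟩) h1 h3

theorem factTwoSix : FactTwoSix.{u, v} := by
  intro H V _ _ _ _ _ hf hV t htp ht2 htH h X hXn hn
  have ht : Fact t.Prime := ⟨htp⟩
  have := hXn
  have hp := params hf hV ht2 htH h
  -- all `X`-orbits
  have hle : ∀ T : Sylow t H, X ≤ normalizer ((T : Subgroup H) : Set H) := by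
    intro T
    have h1 : (normalizer ((T : Subgroup H) : Set H)).relIndex X ≡ 1 [MOD t] :=
      relIndex_modEq_one T X (by rw [normalizer_eq_top (H := X)]; exact le_top)
    have h2 : (normalizer ((T : Subgroup H) : Set H)).relIndex X ∣ Nat.card (Sylow t H) := by
      rw [Sylow.card_eq_index_normalizer T]
      exact relIndex_dvd_index _ X
    rw [← relIndex_eq_one]
    by_contra h3
    have h4 : ((normalizer ((T : Subgroup H) : Set H)).relIndex X).factorization 7 = 1 ∧
        ¬ 7 ≡ 1 [MOD t] := by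
      rcases hp T with ⟨rfl, hc, -⟩ | ⟨rfl, hc, -⟩
      · rw [hc] at h2
        have h5 : (normalizer ((T : Subgroup H) : Set H)).relIndex X = 9 * 7 := num63 _ h2 h1 h3
        rw [h5]
        exact ⟨fac7 9 (by norm_num) (by norm_num), by decide⟩
      · rw [hc] at h2
        have h5 : (normalizer ((T : Subgroup H) : Set H)).relIndex X = 3 * 7 := num21 _ h2 h1 h3
        rw [h5]
        exact ⟨fac7 3 (by norm_num) (by norm_num), by decide⟩
    exact h4.2 (seven T X hn h4.1)
  refine solvable_of_norm hf h X hle fun T => ?_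
  rcases hp T with ⟨-, -, h1⟩ | ⟨-, -, h1⟩ <;> rw [h1]
  norm_num

theorem factTwoSix' : FactTwoSix'.{u, v} := by
  have key : ∀ (H : Type u) (V : Type v) [Group H] [Finite H] [AddCommGroup V] [Finite V]
      [DistribMulAction H V], Faith H V → Nat.card V = 2 ^ 6 → 31 ∣ Nat.card H → 5 ∣ Nat.card H →
      UF 31 H (⊥ : AddSubgroup V) → UF 5 H (⊥ : AddSubgroup V) → False := by
    intro H V _ _ _ _ _ hf hV h31 h5 hA hB
    have : Fact (Nat.Prime 31) := ⟨by norm_num⟩
    have : Fact (Nat.Prime 5) := ⟨by norm_num⟩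
    have hnt : Nontrivial V := by
      apply Finite.one_lt_card_iff_nontrivial.1
      rw [hV]
      norm_num
    obtain ⟨v, hv⟩ := exists_ne (0 : V)
    obtain ⟨A, hAv, hAu⟩ := hA v hv
    obtain ⟨B, hBv, hBu⟩ := hB v hv
    have cA : Nat.card (fixed V (A : Subgroup H)) = 2 := by
      rcases params hf hV (by norm_num) h31 hA A with ⟨-, -, h⟩ | ⟨h, -, -⟩
      · exact h
      · norm_num at h
    have cB : Nat.card (fixed V (B : Subgroup H)) = 4 := by
      rcases params hf hV (by norm_num) h5 hB B with ⟨h, -, -⟩ | ⟨-, -, h⟩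
      · norm_num at h
      · exact h
    -- `A` normalises `B`
    have hAB : (A : Subgroup H) ≤ normalizer ((B : Subgroup H) : Set H) := by
      intro a ha
      apply Sylow.smul_eq_iff_mem_normalizer.1
      apply hBu
      have h1 := fix_conj hBv a
      rwa [hAv a ha] at h1
    -- `A` acts on the fixed vectors of `B`
    let act : MulAction (A : Subgroup H) (fixed V (B : Subgroup H)) :=
      { smul := fun x v => ⟨(x : H) • (v : V), smul_fixed (hAB x.2) v.2⟩
        one_smul := fun v => Subtype.ext (one_smul H (v : V))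
        mul_smul := fun x y v => Subtype.ext (mul_smul (x : H) (y : H) (v : V)) }
    have h1 := A.isPGroup'.card_modEq_card_fixedPoints (fixed V (B : Subgroup H))
    rw [cB] at h1
    have h2 : Nat.card (MulAction.fixedPoints (A : Subgroup H) (fixed V (B : Subgroup H))) ≤
        Nat.card (fixed V (A : Subgroup H)) := by
      refine Nat.card_le_card_of_injective (fun w => ⟨((w : fixed V (B : Subgroup H)) : V), ?_⟩) ?_
      · intro z hz
        exact congrArg Subtype.val (w.2 ⟨z, hz⟩)
      · intro w w' hw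
        have hw' : (((w : fixed V (B : Subgroup H)) : V)) = ((w' : fixed V (B : Subgroup H)) : V) :=
          congrArg (fun z : fixed V (A : Subgroup H) => (z : V)) hw
        exact Subtype.ext (Subtype.ext hw')
    rw [cA] at h2
    unfold Nat.ModEq at h1
    generalize Nat.card (MulAction.fixedPoints (A : Subgroup H) (fixed V (B : Subgroup H))) = k at *
    omega
  intro H V _ _ _ _ _ hf hV s t hs ht hst hs2 ht2 hsH htH hus hut
  have : Fact s.Prime := ⟨hs⟩
  have : Fact t.Prime := ⟨ht⟩
  obtain ⟨S⟩ : Nonempty (Sylow s H) := inferInstance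
  obtain ⟨T⟩ : Nonempty (Sylow t H) := inferInstance
  rcases params hf hV hs2 hsH hus S with ⟨rfl, -, -⟩ | ⟨rfl, -, -⟩ <;>
    rcases params hf hV ht2 htH hut T with ⟨rfl, -, -⟩ | ⟨rfl, -, -⟩
  · exact hst rfl
  · exact key H V hf hV hsH htH hus hut
  · exact key H V hf hV htH hsH hut hus
  · exact hst rfl

end Cfsg.Agent.H187.TwoSix
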